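import Mathlib.Tactic

/-!
The equation satisfied by two degrees in the principal block of a group with homocyclic Sylow
2-subgroups of rank two.
-/

set_option autoImplicit false

namespace Cfsg.Agent.Lib.SquareSylow

private lemma natAbs_cases {k l v : ℤ} (hk : k % 8 = 1) (hl : l % 8 = 1) (hv : v % 8 = 1)
    (h : (k * l - 4) * v = -2 - l) (hl1 : l ≠ 1) : k = 1 := by
  by_contra hk1
  have hk7 : 7 ≤ |k| := by rcases abs_cases k with ⟨e, _⟩ | ⟨e, _⟩ <;> omega
  have hl7 : 7 ≤ |l| := by rcases abs_cases l with ⟨e, _⟩ | ⟨e, _⟩ <;> omega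
  have hv1 : 1 ≤ |v| := by rcases abs_cases v with ⟨e, _⟩ | ⟨e, _⟩ <;> omega
  have h1 : |k * l - 4| * |v| = |(-2 - l)| := by rw [← abs_mul, h]
  have h2 : |k| * |l| - 4 ≤ |k * l - 4| := by
    have := abs_sub_abs_le_abs_sub (k * l) 4
    rw [abs_mul] at this
    simpa using this
  have h3 : |(-2 - l)| ≤ 2 + |l| := by
    have := abs_sub (-2 : ℤ) l
    simpa using this
  have h4 : |k * l - 4| ≤ |k * l - 4| * |v| := le_mul_of_one_le_right (abs_nonneg _) hv1
  nlinarith

/-- The only solution congruent to `1` modulo `16` is `(1, 1)`. -/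
theorem degrees_eq_one {A B : ℤ} (hA : (16 : ℤ) ∣ A - 1) (hB : (16 : ℤ) ∣ B - 1)
    (h : (A * B + A + B) * (1 + A + B) = 9 * (A * B)) : A = 1 ∧ B = 1 := by
  obtain ⟨a, ha⟩ := hA
  obtain ⟨b, hb⟩ := hB
  set u : ℤ := 8 * a + 1 with hu
  set v : ℤ := 8 * b + 1 with hv
  have eA : A = 2 * u - 1 := by omega
  have eB : B = 2 * v - 1 := by omega
  subst eA eB
  have hu8 : u % 8 = 1 := by omega
  have hv8 : v % 8 = 1 := by omega
  have hid : ((2 * u - 1) * (2 * v - 1) + (2 * u - 1) + (2 * v - 1)) * (1 + (2 * u - 1) + (2 * v - 1)) =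
      8 * (u * v * (u + v - 1)) + (2 * u - 1) * (2 * v - 1) := by ring
  have hw : u * v * (u + v - 1) = (2 * u - 1) * (2 * v - 1) := by linarith
  have hcu : IsCoprime u (2 * u - 1) := ⟨2, -1, by ring⟩
  have hcv : IsCoprime v (2 * v - 1) := ⟨2, -1, by ring⟩
  obtain ⟨l, hl⟩ : u ∣ 2 * v - 1 := hcu.dvd_of_dvd_mul_left ⟨v * (u + v - 1), by rw [← hw]; ring⟩
  obtain ⟨k, hk⟩ : v ∣ 2 * u - 1 := hcv.dvd_of_dvd_mul_right ⟨u * (u + v - 1), by rw [← hw]; ring⟩
  have hk8 : k % 8 = 1 := by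
    have e : k = 16 * a + 1 - 8 * (b * k) := by rw [hv, hu] at hk; linarith
    omega
  have hl8 : l % 8 = 1 := by
    have e : l = 16 * b + 1 - 8 * (a * l) := by rw [hv, hu] at hl; linarith
    omega
  have ev : (k * l - 4) * v = -2 - l := by linear_combination (-l) * hk - 2 * hl
  by_cases hl1 : l = 1
  · subst hl1
    have e3 : v * (4 - k) = 3 := by linarith
    have hv3 : v ∣ 3 := ⟨4 - k, e3.symm⟩
    have hn : v.natAbs ≤ 3 := Int.natAbs_le_of_dvd_ne_zero hv3 (by norm_num)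
    have : v = 1 := by omega
    constructor <;> omega
  · have hk1 : k = 1 := natAbs_cases hk8 hl8 hv8 ev hl1
    subst hk1
    have e3 : u * (4 - l) = 3 := by
      have : (1 * l - 4) * u = -2 - 1 := by linear_combination (-1 : ℤ) * hl - 2 * hk
      linarith
    have hu3 : u ∣ 3 := ⟨4 - l, e3.symm⟩
    have hn : u.natAbs ≤ 3 := Int.natAbs_le_of_dvd_ne_zero hu3 (by norm_num)
    have : u = 1 := by omega
    constructor <;> omega

end Cfsg.Agent.Lib.SquareSylow
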