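import Cfsg.Agent.Lib.SquareSylow.Dual
import Cfsg.Agent.Lib.FreeInertial.Main
import Cfsg.Agent.Lib.SquareSylow.Arith
import Cfsg.Agent.Lib.Involution.PrincipalSection
import Cfsg.Agent.Lib.Block.Singular
import Cfsg.Agent.Lib.Block.Exist
import Cfsg.Agent.Lib.CharTools.ClassMult
import Cfsg.Agent.Lib.Char.Coherent
import Cfsg.Agent.Lib.Char.Kernel

/-!
Brauer's argument for a homocyclic Sylow 2-subgroup of rank two: the principal block supplies a
nontrivial linear character trivial on the Sylow subgroup.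
-/

set_option autoImplicit false
set_option linter.unusedSectionVars false
set_option linter.style.haveILetI false

namespace Cfsg.Agent.Lib.SquareSylow

open Cfsg Cfsg.Agent.Lib Cfsg.Agent.Lib.Block Cfsg.Agent.Lib.FreeInertial
open Cfsg.Agent.Lib.Star (pp isPPart_pp pp_eq)
open scoped ComplexConjugate

universe u

variable {G : Type u} [Group G] [Fintype G] {A : Type u} [CommGroup A] [Fintype A]
  {j : A →* G} {E : Subgroup (MulAut A)}

theorem exists_five_terms {X : Type*} [Fintype X] {ε : ℤ} (hε : ε = 1 ∨ ε = -1) {μ : X → IrrCharacter G}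
    (hμ : Function.Injective μ) (hμ1 : ∀ i, μ i ≠ oneIrr G) (i₀ : X) (hX : 5 ≤ Fintype.card X)
    {ψ : G → ℂ} (hψ : IsGeneralizedCharacter G ψ) (hn : classInner ψ ψ = 4)
    (h1 : classInner ψ (oneIrr G : G → ℂ) = 1)
    (hμz : ∀ i, i ≠ i₀ → classInner ψ (μ i : G → ℂ) - classInner ψ (μ i₀ : G → ℂ) = (ε : ℂ)) :
    ∃ (b c : IrrCharacter G) (s t : ℤ), (s = 1 ∨ s = -1) ∧ (t = 1 ∨ t = -1) ∧ b ≠ c ∧
      b ≠ oneIrr G ∧ c ≠ oneIrr G ∧ (∀ i, μ i ≠ b) ∧ (∀ i, μ i ≠ c) ∧
      ψ = (oneIrr G : G → ℂ) + (s : ℂ) • (b : G → ℂ) + (t : ℂ) • (c : G → ℂ) -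
        (ε : ℂ) • (μ i₀ : G → ℂ) := by
  classical
  choose z hz using Char.generalized_classInner_int hψ
  have hcf := Char.isClassFunction_of_generalized hψ
  have hsq : ∑ χ : IrrCharacter G, z χ * z χ = 4 := by
    have h3 := Char.classInner_eq_sum (φ := ψ) hcf
    rw [hn] at h3
    simp only [hz, map_intCast] at h3
    exact_mod_cast h3.symm
  have z1 : z (oneIrr G) = 1 := by
    have h3 := hz (oneIrr G)
    rw [h1] at h3
    exact_mod_cast h3.symm
  have zi : ∀ i, i ≠ i₀ → z (μ i) = z (μ i₀) + ε := by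
    intro i hi
    have h3 := hμz i hi
    rw [hz, hz] at h3
    have : z (μ i) - z (μ i₀) = ε := by exact_mod_cast h3
    omega
  have hz0 : z (μ i₀) = -ε := by
    by_contra hne
    have hS : ∑ χ ∈ (Finset.univ.erase i₀).image μ, z χ * z χ ≤ 4 :=
      hsq ▸ Finset.sum_le_sum_of_subset_of_nonneg (Finset.subset_univ _)
        (fun χ _ _ => mul_self_nonneg _)
    rw [Finset.sum_image fun a _ b _ h => hμ h] at hS
    have hc : (Finset.univ.erase i₀).card = Fintype.card X - 1 :=
      Finset.card_erase_of_mem (Finset.mem_univ _)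
    have h4 : (Finset.univ.erase i₀).card • (1 : ℤ) ≤ ∑ i ∈ Finset.univ.erase i₀, z (μ i) * z (μ i) :=
      Finset.card_nsmul_le_sum _ _ _ fun i hi => by
        rw [zi i (Finset.mem_erase.1 hi).1]
        have : z (μ i₀) + ε ≠ 0 := fun h => hne (by omega)
        have := mul_self_pos.2 this
        omega
    rw [hc, nsmul_eq_mul, mul_one] at h4
    have h5 : ∑ χ ∈ insert (oneIrr G) ((Finset.univ.erase i₀).image μ), z χ * z χ ≤ 4 :=
      hsq ▸ Finset.sum_le_sum_of_subset_of_nonneg (Finset.subset_univ _)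
        (fun χ _ _ => mul_self_nonneg _)
    rw [Finset.sum_insert (by simp [hμ1]), z1, Finset.sum_image fun a _ b _ h => hμ h] at h5
    omega
  have hne10 : oneIrr G ≠ μ i₀ := (hμ1 i₀).symm
  set R := Finset.univ.filter fun χ : IrrCharacter G => z χ ≠ 0 ∧ χ ≠ oneIrr G ∧ χ ≠ μ i₀ with hR
  have hsplit : ∀ f : IrrCharacter G → ℂ, (∀ χ, z χ = 0 → f χ = 0) →
      ∑ χ, f χ = f (oneIrr G) + f (μ i₀) + ∑ χ ∈ R, f χ := by
    intro f hf
    have e : ∑ χ, f χ = ∑ χ ∈ insert (oneIrr G) (insert (μ i₀) R), f χ := by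
      refine (Finset.sum_subset (Finset.subset_univ _) fun χ _ hχ => hf χ ?_).symm
      simp only [Finset.mem_insert, hR, Finset.mem_filter, Finset.mem_univ, true_and, not_or] at hχ
      by_contra h
      exact hχ.2.2 ⟨h, hχ.1, hχ.2.1⟩
    rw [e, Finset.sum_insert (by simp [hR, hne10]), Finset.sum_insert (by simp [hR]), add_assoc]
  have hR2 : ∑ χ ∈ R, z χ * z χ = 2 := by
    have h6 := hsplit (fun χ => ((z χ * z χ : ℤ) : ℂ)) fun χ h => by simp [h]
    rw [← Int.cast_sum, hsq, z1, hz0, ← Int.cast_sum] at h6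
    have h7 : (4 : ℤ) = 1 * 1 + -ε * -ε + ∑ χ ∈ R, z χ * z χ := by exact_mod_cast h6
    rcases hε with rfl | rfl <;> omega
  have hpos : ∀ χ ∈ R, 1 ≤ z χ * z χ := fun χ hχ => by
    have := mul_self_pos.2 (Finset.mem_filter.1 hχ).2.1
    omega
  have hcard : R.card = 2 := by
    have hle : R.card • (1 : ℤ) ≤ ∑ χ ∈ R, z χ * z χ := Finset.card_nsmul_le_sum _ _ _ hpos
    rw [nsmul_eq_mul, mul_one, hR2] at hle
    rcases Nat.lt_or_ge R.card 2 with hlt | hge
    · exfalso
      rcases Nat.lt_or_ge R.card 1 with h0 | h0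
      · rw [Finset.card_eq_zero.1 (by omega : R.card = 0)] at hR2
        simp at hR2
      · obtain ⟨χ, hχ⟩ := Finset.card_eq_one.1 (by omega : R.card = 1)
        rw [hχ, Finset.sum_singleton] at hR2
        have : |z χ| * |z χ| = 2 := by rw [abs_mul_abs_self]; exact hR2
        rcases le_or_gt |z χ| 1 with h | h <;> nlinarith [abs_nonneg (z χ)]
    · omega
  obtain ⟨b, c, hbc, hR'⟩ := Finset.card_eq_two.1 hcard
  have hb : b ∈ R := by simp [hR']
  have hc : c ∈ R := by simp [hR']
  rw [hR', Finset.sum_pair hbc] at hR2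
  have hb1 := hpos b hb
  have hc1 := hpos c hc
  have hunit : ∀ w : ℤ, w * w = 1 → w = 1 ∨ w = -1 := fun w h => mul_self_eq_one_iff.1 h
  obtain ⟨-, hbz, hb1', hbμ⟩ := Finset.mem_filter.1 hb
  obtain ⟨-, hcz, hc1', hcμ⟩ := Finset.mem_filter.1 hc
  have hout : ∀ χ : IrrCharacter G, χ ≠ oneIrr G → χ ≠ μ i₀ → z χ ≠ 0 → χ = b ∨ χ = c := by
    intro χ e1 e2 e3
    have : χ ∈ R := Finset.mem_filter.2 ⟨Finset.mem_univ _, e3, e1, e2⟩
    simpa [hR'] using this
  have hμR : ∀ i, ∀ w, (w = b ∨ w = c) → μ i ≠ w := by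
    intro i w hw h
    have hw2 : w ≠ μ i₀ ∧ z w ≠ 0 := by rcases hw with rfl | rfl <;> [exact ⟨hbμ, hbz⟩; exact ⟨hcμ, hcz⟩]
    have hi : i ≠ i₀ := fun e => hw2.1 (by rw [← h, e])
    exact hw2.2 (by rw [← h, zi i hi, hz0]; ring)
  refine ⟨b, c, z b, z c, hunit _ (by omega), hunit _ (by omega), hbc, hb1', hc1',
    fun i => hμR i b (Or.inl rfl), fun i => hμR i c (Or.inr rfl), ?_⟩
  conv_lhs => rw [Char.eq_sum_classInner_smul hcf]
  funext g
  simp only [Finset.sum_apply, Pi.smul_apply, Pi.add_apply, Pi.sub_apply, smul_eq_mul, hz]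
  rw [hsplit (fun χ => (z χ : ℂ) * (χ : G → ℂ) g) fun χ h => by simp [h], hR', Finset.sum_pair hbc,
    z1, hz0]
  push_cast
  ring

/-- Values of the principal block characters at the members of the Sylow subgroup. -/
theorem conj_value_eq {M : Ideal AlgInt} (hM : IsPModular 2 M) [Fintype E] [DecidableEq A]
    (hF : Frame j E) {χ : IrrCharacter G} (hχ : χ ∈ principalBlock M G) {x : A} (hx : x ≠ 1) :
    conj ((χ : G → ℂ) (j x)) =
      (Fintype.card A : ℂ) * classInner (lift j (orbInd E x)) (χ : G → ℂ) := by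
  haveI : Fact (Nat.Prime 2) := ⟨Nat.prime_two⟩
  have hpt : ∀ g : G, lift j (orbInd E x) g * conj ((χ : G → ℂ) g) =
      lift j (orbInd E x) g * conj ((χ : G → ℂ) (j x)) := by
    intro g
    by_cases h0 : lift j (orbInd E x) g = 0
    · rw [h0, zero_mul, zero_mul]
    congr 2
    obtain ⟨α, -, hα⟩ := Finset.exists_ne_zero_of_sum_ne_zero h0
    have hax : ((α : MulAut A) (rep2 j g)) = x := by
      by_contra hne
      exact hα (if_neg hne)
    have hconj : IsConj (j x) (pp 2 g) :=
      ((hF.fus _ _).2 ⟨α, α.2, hax⟩).symm.trans (hF.rep2_spec g)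
    obtain ⟨c, hc⟩ := isConj_iff.1 hconj
    obtain ⟨y, h1, h2, -, h4⟩ := isPPart_pp (p := 2) g
    have hv : c⁻¹ * y * c ∈ Cfsg.centralizerPPrimeCore 2 (j x) := by
      refine (hF.compl x hx).2 _ ?_ ?_
      · have := h2.symm.map (MulAut.conj c⁻¹).toMonoidHom
        simp only [MulEquiv.coe_toMonoidHom, MulAut.conj_apply, inv_inv] at this
        rwa [show c⁻¹ * pp 2 g * c = j x by rw [← hc]; group] at this
      · rwa [show c⁻¹ * y * c = c⁻¹ * y * c⁻¹⁻¹ by rw [inv_inv], orderOf_conj_eq]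
    rw [← Involution.value_mul_core hM (hF.isPElem x) hv hχ,
      ← Char.isClassFunction_of_isIrr χ.2 (j x * (c⁻¹ * y * c)) c]
    congr 1
    conv_lhs => rw [← h1, ← hc]
    group
  have hone : lift j (fun _ : A => (1 : ℂ)) = fun _ : G => (1 : ℂ) := rfl
  have hd1 : orbInd E x 1 = 0 := Finset.sum_eq_zero fun α _ => if_neg (by rw [map_one]; exact hx.symm)
  have hs : ∑ a : A, orbInd E x a = (Fintype.card E : ℂ) := by
    simp only [orbInd]
    rw [Finset.sum_comm]
    refine (Finset.sum_congr rfl fun (α : E) _ =>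
      (Finset.sum_eq_single ((α : MulAut A).symm x) (fun a _ ha => if_neg fun h => ha ?_) ?_)).trans ?_
    · rw [← h, MulEquiv.symm_apply_apply]
    · simp
    · simp
  have hsum : (Nat.card G : ℂ)⁻¹ * ∑ g : G, lift j (orbInd E x) g = (Fintype.card A : ℂ)⁻¹ := by
    have h := hF.classInner_lift (inv_orbInd x) (h := fun _ => (1 : ℂ)) (fun _ _ _ => rfl)
      (by rw [hd1, zero_mul])
    simp only [hone, classInner, map_one, mul_one] at h
    rw [h, hs, ← Nat.card_eq_fintype_card (α := E), hF.card_E, Nat.card_eq_fintype_card]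
    push_cast
    field_simp
  rw [classInner, Finset.sum_congr rfl fun g _ => hpt g, ← Finset.sum_mul, ← mul_assoc (Nat.card G : ℂ)⁻¹,
    hsum, ← mul_assoc, mul_inv_cancel₀ (Nat.cast_ne_zero.2 Fintype.card_ne_zero), one_mul]

/-- An irreducible character meeting the indicator of the singular elements lies in the principal
block. -/
theorem mem_principal_of_ne {M : Ideal AlgInt} (hM : IsPModular 2 M) {f : G → ℂ}
    (hf : ∀ g, f g = if 2 ∣ orderOf g then 1 else 0) {χ : IrrCharacter G} (hχ : χ ≠ oneIrr G)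
    (h : classInner f (χ : G → ℂ) ≠ 0) : χ ∈ principalBlock M G := by
  haveI := hM.2.1
  haveI : M.IsPrime := hM.2.1.isPrime
  by_contra hn
  refine h ?_
  have h0 := Block.regInner_eq_zero hM (χ := oneIrr G) (ψ := χ) fun hsb => hn hsb
  have h1 : classInner (oneIrr G : G → ℂ) (χ : G → ℂ) = 0 := by
    rw [Char.classInner_irrCharacter, if_neg hχ.symm]
  have e : (fun g : G => if 2 ∣ orderOf g then 0 else (oneIrr G : G → ℂ) g) =
      (oneIrr G : G → ℂ) - f := by
    funext g
    rw [Pi.sub_apply, hf, oneIrr_apply]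
    split_ifs <;> simp
  rw [Block.regInner, e, Char.classInner_sub_left, h1, zero_sub, neg_eq_zero] at h0
  exact h0

/-- No product of two conjugates of an involution has two-part conjugate to an element of order
above two. -/
theorem lift_orbInd_eq_zero [Fintype E] [DecidableEq A] (hF : Frame j E) {t x : A} (ht : t * t = 1)
    (hx : x * x ≠ 1) {g h : G} (hg : IsConj g (j t)) (hh : IsConj h (j t)) :
    lift j (orbInd E x) (g * h) = 0 := by
  haveI : Fact (Nat.Prime 2) := ⟨Nat.prime_two⟩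
  by_contra h0
  obtain ⟨α, -, hα⟩ := Finset.exists_ne_zero_of_sum_ne_zero h0
  have hax : ((α : MulAut A) (rep2 j (g * h))) = x := by
    by_contra hne
    exact hα (if_neg hne)
  have hconj : IsConj (j x) (pp 2 (g * h)) :=
    ((hF.fus _ _).2 ⟨α, α.2, hax⟩).symm.trans (hF.rep2_spec (g * h))
  have hinv : ∀ w : G, IsConj w (j t) → w * w = 1 := by
    intro w hw
    obtain ⟨c, hc⟩ := isConj_iff.1 hw
    have : c * (w * w) * c⁻¹ = 1 := by
      rw [show c * (w * w) * c⁻¹ = c * w * c⁻¹ * (c * w * c⁻¹) by group, hc, ← map_mul, ht, map_one]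
    exact conj_eq_one_iff.1 this
  set y := pp 2 (g * h) with hy
  have hyp : IsPPart 2 (g * h) y := isPPart_pp _
  have hrev : IsPPart 2 (g * h)⁻¹ y⁻¹ := by
    obtain ⟨r, h1, h2, h3, h4⟩ := hyp
    refine ⟨r⁻¹, ?_, h2.inv_inv, ?_, by rwa [orderOf_inv]⟩
    · rw [← mul_inv_rev, h2.symm.eq, h1]
    · obtain ⟨k, hk⟩ := h3
      exact ⟨k, by rw [orderOf_inv, hk]⟩
  have e : g * (g * h) * g⁻¹ = (g * h)⁻¹ := by
    rw [mul_inv_rev, ← mul_assoc g g h, hinv g hg, one_mul, inv_eq_of_mul_eq_one_right (hinv h hh)]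
  have hyconj : g * y * g⁻¹ = y⁻¹ := by
    have h5 := IsPPart.conj hyp g
    rw [e] at h5
    exact IsPPart.unique h5 hrev
  obtain ⟨c, hc⟩ := isConj_iff.1 hconj
  have hxx : IsConj (j x) (j x⁻¹) := isConj_iff.2 ⟨c⁻¹ * g * c, by
    rw [map_inv]
    calc c⁻¹ * g * c * j x * (c⁻¹ * g * c)⁻¹ = c⁻¹ * (g * (c * j x * c⁻¹) * g⁻¹) * c := by group
      _ = c⁻¹ * (c * j x * c⁻¹)⁻¹ * c := by rw [hc, hyconj]
      _ = (j x)⁻¹ := by group⟩
  obtain ⟨β, hβ, hβx⟩ := (hF.fus _ _).1 hxx
  have hx1 : x ≠ 1 := fun e => hx (by rw [e, one_mul])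
  have h2 : β * β = 1 := hF.free _ (mul_mem hβ hβ) x hx1 (by
    rw [MulAut.mul_apply, hβx, map_inv, hβx, inv_inv])
  have h3 : β ^ 3 = 1 := by
    have := pow_card_eq_one' (G := E) (x := ⟨β, hβ⟩)
    rw [hF.card_E] at this
    exact congrArg Subtype.val this
  rw [pow_succ, pow_two, h2, one_mul] at h3
  rw [h3, MulAut.one_apply] at hβx
  exact hx (mul_eq_one_iff_eq_inv.2 hβx)

/-- Brauer's theorem: a proper normal subgroup contains the Sylow subgroup. -/
theorem exists_normal_ne_top (hF : Frame j E) (h16 : 16 ∣ Fintype.card A) {x t : A}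
    (hx : x * x ≠ 1) (ht : t * t = 1) (ht1 : t ≠ 1) :
    ∃ N : Subgroup G, N.Normal ∧ N ≠ ⊤ ∧ j.range ≤ N := by
  classical
  haveI : Fact (Nat.Prime 2) := ⟨Nat.prime_two⟩
  letI := Fintype.ofFinite E
  obtain ⟨M, hM⟩ := Block.exists_isPModular Nat.prime_two
  haveI := hM.2.1
  have hE : Fintype.card E = 3 := by rw [← Nat.card_eq_fintype_card, hF.card_E]
  have hEC : (Fintype.card E : ℂ) = 3 := by rw [hE]; norm_num
  obtain ⟨X, _, rep, hr1, hr2, hr3, hXc⟩ := FreeInertial.exists_reps E hF.free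
  have hR : Reps E X rep := ⟨hr1, hr2, hr3⟩
  rw [Nat.card_eq_fintype_card, hF.card_E, Nat.card_eq_fintype_card] at hXc
  have h16' := Nat.le_of_dvd Fintype.card_pos h16
  have hX : 5 ≤ Fintype.card X := by omega
  obtain ⟨i₀⟩ : Nonempty X := Fintype.card_pos_iff.1 (by omega)
  have hA0 : (Fintype.card A : ℂ) ≠ 0 := Nat.cast_ne_zero.2 Fintype.card_ne_zero
  set T : (A →* ℂˣ) → A → ℂ := orbSum E with hT
  have hTI : ∀ l, Inv E (T l) := inv_orbSum
  have hTd : ∀ l m, Inv E (T l - T m) := fun l m α hα a => by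
    rw [Pi.sub_apply, Pi.sub_apply, hTI l α hα, hTI m α hα]
  have hgen : ∀ l m, IsGeneralizedCharacter G (lift j (T l - T m)) := fun l m =>
    hF.isGeneralized_lift (hTd l m) ⟨T l, T m, isCharacter_orbSum l, isCharacter_orbSum m, rfl⟩
  have hzero : ∀ l m, (T l - T m) 1 = 0 := fun l m => by
    rw [Pi.sub_apply, hT, orbSum_at_one, orbSum_at_one, sub_self]
  have hone : ∀ l m, lift j (T l - T m) 1 = 0 := fun l m => by rw [hF.lift_one (hTd l m), hzero]
  set S : (A →* ℂˣ) → (A →* ℂˣ) → ℂ := fun l m => ∑ a : A, T l a * conj (T m a) with hS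
  have hin : ∀ l m l' m', classInner (lift j (T l - T m)) (lift j (T l' - T m')) =
      (3 * (Fintype.card A : ℂ))⁻¹ * (S l l' - S l m' - S m l' + S m m') := by
    intro l m l' m'
    rw [hF.classInner_lift (hTd l m) (hTd l' m') (by rw [hzero, zero_mul]), Nat.card_eq_fintype_card,
      hS]
    simp only [← Finset.sum_sub_distrib, ← Finset.sum_add_distrib]
    refine congrArg _ (Finset.sum_congr rfl fun a _ => ?_)
    simp only [Pi.sub_apply, map_sub]
    ring
  have hSii : ∀ i k, S (rep i) (rep k) = if i = k then (Fintype.card A : ℂ) * 3 else 0 := fun i k => by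
    rw [hS, ← hEC]; exact hR.sum_orbSum_mul_eq i k
  have hS1i : ∀ i, S 1 (rep i) = 0 := fun i => by
    simp only [hS, hT, orbSum_one, ← Finset.mul_sum, ← map_sum, sum_orbSum (hr1 i), map_zero, mul_zero]
  have hSi1 : ∀ i, S (rep i) 1 = 0 := fun i => by
    simp only [hS, hT, orbSum_one, map_natCast, ← Finset.sum_mul, sum_orbSum (hr1 i), zero_mul]
  have hS11 : S 1 1 = (Fintype.card A : ℂ) * 9 := by
    simp only [hS, hT, orbSum_one, map_natCast, Finset.sum_const, Finset.card_univ, nsmul_eq_mul, hEC]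
    norm_num [map_ofNat]
  -- the exceptional characters
  obtain ⟨εc, hεc, μ, hμ, hτ⟩ := Char.exists_coherent_family i₀
    (fun i => lift j (T (rep i) - T (rep i₀))) (by simp [sub_self, lift_zero])
    (fun i => hgen _ _) (fun i => hone _ _) fun i k hi hk => by
      refine ⟨fun e => ?_, fun e => ?_⟩
      · subst e
        rw [hin, hSii, hSii, hSii, hSii, if_pos rfl, if_neg hi, if_neg hi.symm, if_pos rfl]
        field_simp
        ring
      · rw [hin, hSii, hSii, hSii, hSii, if_neg e, if_neg hi, if_neg hk.symm, if_pos rfl]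
        field_simp
        ring
  obtain ⟨ε, hε, rfl⟩ : ∃ ε : ℤ, (ε = 1 ∨ ε = -1) ∧ εc = (ε : ℂ) := by
    rcases hεc with rfl | rfl
    · exact ⟨1, Or.inl rfl, by norm_num⟩
    · exact ⟨-1, Or.inr rfl, by norm_num⟩
  have hεC : (ε : ℂ) * (ε : ℂ) = 1 := by rcases hε with rfl | rfl <;> norm_num
  -- inner products with the trivial character
  have hone' : lift j (fun _ : A => (1 : ℂ)) = (oneIrr G : G → ℂ) := rfl
  have hin1 : ∀ l m, classInner (lift j (T l - T m)) (oneIrr G : G → ℂ) =
      (3 * (Fintype.card A : ℂ))⁻¹ * (∑ a, T l a - ∑ a, T m a) := by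
    intro l m
    rw [← hone', hF.classInner_lift (hTd l m) (fun _ _ _ => rfl) (by rw [hzero, zero_mul]),
      Nat.card_eq_fintype_card, ← Finset.sum_sub_distrib]
    all_goals simp
  have hμ1 : ∀ i, μ i ≠ oneIrr G := by
    have hall : ∀ i, ((if μ i = oneIrr G then 1 else 0) - (if μ i₀ = oneIrr G then 1 else 0) : ℂ) = 0 := by
      intro i
      have h := hin1 (rep i) (rep i₀)
      rw [hτ i, hT, sum_orbSum (hr1 _), sum_orbSum (hr1 _), sub_zero, mul_zero, Char.classInner_smul_left,
        Char.classInner_sub_left, Char.classInner_irrCharacter, Char.classInner_irrCharacter] at h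
      exact (mul_eq_zero.1 h).resolve_left fun h0 => by rw [h0, mul_zero] at hεC; exact zero_ne_one hεC
    intro i hi
    obtain ⟨k, hk⟩ := Fintype.exists_ne_of_one_lt_card (show 1 < Fintype.card X by omega) i
    have hk' : μ k ≠ oneIrr G := fun e => hk (hμ (e.trans hi.symm))
    have h1 := hall i
    have h2 := hall k
    rw [if_pos hi] at h1
    rw [if_neg hk'] at h2
    split_ifs at h1 h2 <;> first | (norm_num at h1; done) | (norm_num at h2; done)
  obtain ⟨b, c, sb, sc, hsb, hsc, hbc, hb1, hc1, hμb, hμc, hα⟩ :=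
    exists_five_terms hε hμ hμ1 i₀ hX (hgen 1 (rep i₀))
      (by rw [hin, hS11, hS1i, hSi1, hSii, if_pos rfl]; field_simp; ring)
      (by
        rw [hin1, hT, sum_orbSum (hr1 _), sub_zero]
        simp only [orbSum_one, Finset.sum_const, Finset.card_univ, nsmul_eq_mul, hEC]
        field_simp)
      (fun i hi => by
        have h : classInner (lift j (T 1 - T (rep i₀))) (lift j (T (rep i) - T (rep i₀))) = 1 := by
          rw [hin, hS1i, hS1i, hSii, hSii, if_neg hi.symm, if_pos rfl]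
          field_simp
          ring
        rw [hτ i, Char.classInner_conj_symm, Char.classInner_smul_left, map_mul, map_intCast,
          ← Char.classInner_conj_symm, Char.classInner_conj_symm _ (lift j _),
          Char.classInner_sub_left, map_sub, ← Char.classInner_conj_symm, ← Char.classInner_conj_symm] at h
        calc _ = ((ε : ℂ) * ε) * (classInner (lift j (T 1 - T (rep i₀))) (μ i : G → ℂ) -
              classInner (lift j (T 1 - T (rep i₀))) (μ i₀ : G → ℂ)) := by rw [hεC, one_mul]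
          _ = ε := by rw [mul_assoc, h, mul_one])
  -- the orbit indicators
  set co : A → X → ℂ := fun y i => conj (T (rep i) y) with hco
  have hΔ : ∀ y : A, y ≠ 1 → (Fintype.card A : ℂ) • lift j (orbInd E y) =
      (oneIrr G : G → ℂ) + (sb : ℂ) • (b : G → ℂ) + (sc : ℂ) • (c : G → ℂ) +
        ∑ i, ((ε : ℂ) * co y i) • (μ i : G → ℂ) := by
    intro y hy
    rw [← lift_smul, hR.card_smul_orbInd i₀ hy, lift_add, lift_sum]
    simp only [lift_smul]
    rw [show orbSum E = T from rfl, hα, Finset.sum_congr rfl fun i _ => by rw [hτ i]]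
    funext g
    simp only [Pi.add_apply, Pi.sub_apply, Pi.smul_apply, Finset.sum_apply, smul_eq_mul]
    have hsum : ∑ i, co y i = -1 := hR.sum_conj_orbSum hy
    have e : ∑ i, conj (T (rep i) y) * ((ε : ℂ) * ((μ i : G → ℂ) g - (μ i₀ : G → ℂ) g)) =
        ∑ i, (ε : ℂ) * co y i * (μ i : G → ℂ) g + (ε : ℂ) * (μ i₀ : G → ℂ) g := by
      calc _ = ∑ i, (ε : ℂ) * co y i * (μ i : G → ℂ) g -
            (∑ i, co y i) * ((ε : ℂ) * (μ i₀ : G → ℂ) g) := by
              rw [Finset.sum_mul, ← Finset.sum_sub_distrib]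
              exact Finset.sum_congr rfl fun i _ => by simp only [hco]; ring
        _ = _ := by rw [hsum]; ring
    rw [e]
    ring
  have hcoef : ∀ (y : A), y ≠ 1 → ∀ χ : IrrCharacter G,
      (Fintype.card A : ℂ) * classInner (lift j (orbInd E y)) (χ : G → ℂ) =
        (if oneIrr G = χ then 1 else 0) + (sb : ℂ) * (if b = χ then 1 else 0) +
          (sc : ℂ) * (if c = χ then 1 else 0) + ∑ i, (ε : ℂ) * co y i * (if μ i = χ then 1 else 0) := by
    intro y hy χ
    rw [← Char.classInner_smul_left, hΔ y hy, Char.classInner_add_left, Char.classInner_add_left,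
      Char.classInner_add_left, Char.classInner_sum_left]
    simp only [Char.classInner_smul_left, Char.classInner_irrCharacter]
  have cb : ∀ y : A, y ≠ 1 → (Fintype.card A : ℂ) * classInner (lift j (orbInd E y)) (b : G → ℂ) = sb := by
    intro y hy
    rw [hcoef y hy, if_neg hb1.symm, if_pos rfl, if_neg hbc.symm,
      Finset.sum_eq_zero fun i _ => by rw [if_neg (hμb i), mul_zero]]
    ring
  have cc : ∀ y : A, y ≠ 1 → (Fintype.card A : ℂ) * classInner (lift j (orbInd E y)) (c : G → ℂ) = sc := by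
    intro y hy
    rw [hcoef y hy, if_neg hc1.symm, if_neg hbc, if_pos rfl,
      Finset.sum_eq_zero fun i _ => by rw [if_neg (hμc i), mul_zero]]
    ring
  have cμ : ∀ y : A, y ≠ 1 → ∀ k, (Fintype.card A : ℂ) * classInner (lift j (orbInd E y)) (μ k : G → ℂ) =
      (ε : ℂ) * co y k := by
    intro y hy k
    rw [hcoef y hy, if_neg (hμ1 k).symm, if_neg (hμb k).symm, if_neg (hμc k).symm,
      Finset.sum_eq_single k (fun i _ hi => by rw [if_neg fun e => hi (hμ e), mul_zero]) (by simp),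
      if_pos rfl]
    ring
  -- principal block
  set sing : A → ℂ := fun a => if a = 1 then 0 else 1 with hsing
  have hsingI : Inv E sing := fun α hα a => by simp [hsing]
  have hsingG : ∀ g, lift j sing g = if 2 ∣ orderOf g then 1 else 0 := by
    intro g
    have hiff : rep2 j g = 1 ↔ ¬ 2 ∣ orderOf g := by
      rw [regular_iff_isPPart_one]
      constructor
      · intro h
        have := hF.rep2_spec g
        rw [h, map_one, isConj_one_right] at this
        exact this ▸ isPPart_pp g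
      · intro h
        have := hF.rep2_spec g
        rw [pp_eq h, isConj_one_left] at this
        exact hF.inj (by rw [this, map_one])
    simp only [lift, hsing]
    split_ifs with h1 h2 <;> first | rfl | exact absurd h2 (hiff.1 h1) | exact absurd (hiff.2 (by assumption)) h1
  have hsingδ : (3 : ℂ) • lift j sing = ∑ y ∈ Finset.univ.erase (1 : A), lift j (orbInd E y) := by
    rw [← lift_smul, ← lift_sum]
    refine congrArg _ (funext fun a => ?_)
    simp only [Pi.smul_apply, smul_eq_mul, Finset.sum_apply, orbInd, hsing]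
    rw [Finset.sum_comm, Finset.sum_congr rfl fun α _ => Finset.sum_ite_eq _ _ _]
    simp only [Finset.mem_erase, Finset.mem_univ, and_true, ne_eq, map_eq_one_iff _ (MulEquiv.injective _),
      Finset.sum_const, Finset.card_univ, hE, nsmul_eq_mul]
    split_ifs <;> simp
  have hprin : ∀ χ : IrrCharacter G, χ ≠ oneIrr G →
      (∑ y ∈ Finset.univ.erase (1 : A),
        (Fintype.card A : ℂ) * classInner (lift j (orbInd E y)) (χ : G → ℂ)) ≠ 0 →
      χ ∈ principalBlock M G := by
    intro χ hχ h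
    refine mem_principal_of_ne hM hsingG hχ fun h0 => h ?_
    rw [← Finset.mul_sum, ← Char.classInner_sum_left, ← hsingδ, Char.classInner_smul_left, h0, mul_zero,
      mul_zero]
  have hcardA : ((Finset.univ.erase (1 : A)).card : ℂ) ≠ 0 := by
    rw [Finset.card_erase_of_mem (Finset.mem_univ _), Finset.card_univ]
    exact Nat.cast_ne_zero.2 (by omega)
  have hpb : b ∈ principalBlock M G := hprin b hb1 (by
    rw [Finset.sum_congr rfl fun y hy => cb y (Finset.mem_erase.1 hy).1, Finset.sum_const, nsmul_eq_mul]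
    exact mul_ne_zero hcardA (by rcases hsb with rfl | rfl <;> norm_num))
  have hpc : c ∈ principalBlock M G := hprin c hc1 (by
    rw [Finset.sum_congr rfl fun y hy => cc y (Finset.mem_erase.1 hy).1, Finset.sum_const, nsmul_eq_mul]
    exact mul_ne_zero hcardA (by rcases hsc with rfl | rfl <;> norm_num))
  have hsumerase : ∀ k, ∑ y ∈ Finset.univ.erase (1 : A), T (rep k) y = -3 := fun k => by
    rw [Finset.sum_erase_eq_sub (Finset.mem_univ _), hT, sum_orbSum (hr1 k), orbSum_at_one, hEC, zero_sub]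
  have hpμ : ∀ k, μ k ∈ principalBlock M G := fun k => hprin _ (hμ1 k) (by
    rw [Finset.sum_congr rfl fun y hy => cμ y (Finset.mem_erase.1 hy).1 k, ← Finset.mul_sum,
      show ∑ y ∈ Finset.univ.erase (1 : A), co y k = -3 by
        simp only [hco]; rw [← map_sum, hsumerase]; norm_num [map_ofNat]]
    rcases hε with rfl | rfl <;> norm_num)
  -- values
  have vb : ∀ y : A, y ≠ 1 → (b : G → ℂ) (j y) = sb := fun y hy => by
    have h := conj_value_eq hM hF hpb hy
    rw [cb y hy] at h
    simpa using congrArg conj h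
  have vc : ∀ y : A, y ≠ 1 → (c : G → ℂ) (j y) = sc := fun y hy => by
    have h := conj_value_eq hM hF hpc hy
    rw [cc y hy] at h
    simpa using congrArg conj h
  have vμ : ∀ k, ∀ y : A, y ≠ 1 → (μ k : G → ℂ) (j y) = (ε : ℂ) * T (rep k) y := fun k y hy => by
    have h := conj_value_eq hM hF (hpμ k) hy
    rw [cμ y hy k] at h
    simpa [hco] using congrArg conj h
  -- degrees
  have d : ∀ χ : IrrCharacter G, (χ : G → ℂ) 1 = (charDegree (χ : G → ℂ) : ℂ) := fun χ =>
    Char.apply_one_eq_charDegree (Char.isCharacter_of_isIrr χ.2)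
  have hdμ : ∀ i, (μ i : G → ℂ) 1 = (μ i₀ : G → ℂ) 1 := fun i => by
    have h := hone (rep i) (rep i₀)
    rw [hτ i, Pi.smul_apply, Pi.sub_apply, smul_eq_mul] at h
    exact sub_eq_zero.1 ((mul_eq_zero.1 h).resolve_left fun h0 => by
      rw [h0, mul_zero] at hεC; exact zero_ne_one hεC)
  set a := charDegree (b : G → ℂ)
  set a' := charDegree (c : G → ℂ)
  set e := charDegree (μ i₀ : G → ℂ)
  have hdeg : 1 + sb * (a : ℤ) + sc * (a' : ℤ) - ε * (e : ℤ) = 0 := by
    have h := hone 1 (rep i₀)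
    rw [hα, Pi.sub_apply, Pi.add_apply, Pi.add_apply, Pi.smul_apply, Pi.smul_apply, Pi.smul_apply,
      oneIrr_apply, d, d, d, smul_eq_mul, smul_eq_mul, smul_eq_mul] at h
    exact_mod_cast h
  -- congruences
  have hcong : ∀ χ : IrrCharacter G, ∀ s : ℤ, (∀ y : A, y ≠ 1 → (χ : G → ℂ) (j y) = s) →
      (16 : ℤ) ∣ (charDegree (χ : G → ℂ) : ℤ) - s := by
    intro χ s hval
    obtain ⟨n, hn⟩ := Char.classInner_natCast
      (Char.isCharacter_comp (Char.isCharacter_of_isIrr χ.2) j) (Char.isCharacter_one (G := A))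
    rw [classInner] at hn
    simp only [map_one, mul_one, Function.comp_apply] at hn
    rw [← Finset.add_sum_erase _ _ (Finset.mem_univ (1 : A)),
      Finset.sum_congr rfl fun y hy => by rw [hval y (Finset.mem_erase.1 hy).1]] at hn
    simp only [map_one, Finset.sum_const, Finset.card_erase_of_mem (Finset.mem_univ _),
      Finset.card_univ, nsmul_eq_mul, d, Nat.card_eq_fintype_card] at hn
    rw [inv_mul_eq_iff_eq_mul₀ hA0, Nat.cast_sub (by omega)] at hn
    have h : (charDegree (χ : G → ℂ) : ℤ) + ((Fintype.card A : ℤ) - 1) * s = (Fintype.card A : ℤ) * n := by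
      exact_mod_cast hn
    refine (Int.natCast_dvd_natCast.2 h16).trans ⟨n - s, ?_⟩
    linear_combination h
  have hA16 : (16 : ℤ) ∣ sb * (a : ℤ) - 1 := by
    have h : (16 : ℤ) ∣ (a : ℤ) - sb := hcong b sb vb
    rcases hsb with rfl | rfl
    · simpa using h
    · obtain ⟨m, hm⟩ := h
      exact ⟨-m, by linarith⟩
  have hB16 : (16 : ℤ) ∣ sc * (a' : ℤ) - 1 := by
    have h : (16 : ℤ) ∣ (a' : ℤ) - sc := hcong c sc vc
    rcases hsc with rfl | rfl
    · simpa using h
    · obtain ⟨m, hm⟩ := h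
      exact ⟨-m, by linarith⟩
  -- the structure constant
  have hx1 : x ≠ 1 := fun e => hx (by rw [e, one_mul])
  have hkey : (1 : ℂ) + (sb : ℂ) / a + (sc : ℂ) / a' - 9 * (ε : ℂ) / e = 0 := by
    have hsum : ∑ g : G, ∑ h : G, CharTools.classInd (j t) g * CharTools.classInd (j t) h *
        ((Fintype.card A : ℂ) • lift j (orbInd E x)) (g * h) = 0 := by
      refine Finset.sum_eq_zero fun g _ => Finset.sum_eq_zero fun h _ => ?_
      by_cases hg : IsConj g (j t)
      · by_cases hh : IsConj h (j t)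
        · rw [Pi.smul_apply, lift_orbInd_eq_zero hF ht hx hg hh, smul_zero, mul_zero]
        · rw [CharTools.classInd_of_not hh, mul_zero, zero_mul]
      · rw [CharTools.classInd_of_not hg, zero_mul, zero_mul]
    set I : ℂ := ((Subgroup.centralizer ({j t} : Set G)).index : ℂ) with hI
    have hI0 : I ≠ 0 := Nat.cast_ne_zero.2 Subgroup.index_ne_zero_of_finite
    have hterm : ∀ χ : IrrCharacter G, ∑ g : G, ∑ h : G,
        CharTools.classInd (j t) g * CharTools.classInd (j t) h * (χ : G → ℂ) (g * h) =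
          I * I * ((χ : G → ℂ) (j t) * (χ : G → ℂ) (j t) / (χ : G → ℂ) 1) := fun χ => by
      rw [CharTools.sum_classes_mul χ.2]; ring
    let Φ : (G → ℂ) →ₗ[ℂ] ℂ :=
      { toFun := fun f => ∑ g : G, ∑ h : G, CharTools.classInd (j t) g * CharTools.classInd (j t) h * f (g * h)
        map_add' := fun f k => by simp [mul_add, Finset.sum_add_distrib]
        map_smul' := fun r f => by simp [Finset.mul_sum, mul_left_comm] }
    have hΦ : ∀ χ : IrrCharacter G, Φ (χ : G → ℂ) =
        I * I * ((χ : G → ℂ) (j t) * (χ : G → ℂ) (j t) / (χ : G → ℂ) 1) := hterm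
    replace hsum : Φ ((Fintype.card A : ℂ) • lift j (orbInd E x)) = 0 := hsum
    rw [hΔ x hx1, map_add, map_add, map_add, map_sum] at hsum
    simp only [map_smul, hΦ, smul_eq_mul] at hsum
    rw [vb t ht1, vc t ht1, oneIrr_apply, oneIrr_apply, d, d,
      Finset.sum_congr rfl fun i _ => show (ε : ℂ) * co x i * (I * I * ((μ i : G → ℂ) (j t) *
          (μ i : G → ℂ) (j t) / (μ i : G → ℂ) 1)) = (I * I) * ((ε : ℂ) / (e : ℂ)) *
          (conj (T (rep i) x) * (T (rep i) t * T (rep i) t)) by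
        rw [vμ i t ht1, hdμ i, d, hco]
        have : (ε : ℂ) * T (rep i) t * ((ε : ℂ) * T (rep i) t) =
            ((ε : ℂ) * ε) * (T (rep i) t * T (rep i) t) := by ring
        rw [this, hεC]
        ring,
      ← Finset.mul_sum, hT, hR.sum_conj_orbSum_sq ht hx, hEC] at hsum
    have h7 : (I * I) * ((1 : ℂ) + (sb : ℂ) / a + (sc : ℂ) / a' - 9 * (ε : ℂ) / e) = 0 := by
      rw [← hsum]
      rcases hsb with rfl | rfl <;> rcases hsc with rfl | rfl <;> push_cast <;> ring
    exact (mul_eq_zero.1 h7).resolve_left (mul_ne_zero hI0 hI0)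
  have ha0 : (a : ℂ) ≠ 0 := Nat.cast_ne_zero.2 (Char.charDegree_pos b.2).ne'
  have ha0' : (a' : ℂ) ≠ 0 := Nat.cast_ne_zero.2 (Char.charDegree_pos c.2).ne'
  have he0 : (e : ℂ) ≠ 0 := Nat.cast_ne_zero.2 (Char.charDegree_pos (μ i₀).2).ne'
  have hint : ((a : ℤ) * a' + sb * a' + sc * a) * e = 9 * ε * ((a : ℤ) * a') := by
    field_simp at hkey
    exact_mod_cast (show ((a : ℂ) * a' + sb * a' + sc * a) * e = 9 * ε * ((a : ℂ) * a') by
      linear_combination hkey)
  obtain ⟨hA, -⟩ := degrees_eq_one (A := sb * a) (B := sc * a') hA16 hB16 (by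
    have e1 : 1 + sb * (a : ℤ) + sc * (a' : ℤ) = ε * e := by omega
    rw [e1]
    rcases hsb with rfl | rfl <;> rcases hsc with rfl | rfl <;> rcases hε with rfl | rfl <;>
      linarith)
  have ha : a = 1 ∧ sb = 1 := by
    have hap : 0 < (a : ℤ) := by exact_mod_cast Char.charDegree_pos b.2
    rcases hsb with rfl | rfl <;> omega
  obtain ⟨l, hl⟩ := Char.exists_hom_of_degree_one (Char.isCharacter_of_isIrr b.2)
    (by rw [d, show charDegree (b : G → ℂ) = 1 from ha.1, Nat.cast_one])
  refine ⟨l.ker, inferInstance, fun h => hb1 (Subtype.ext (funext fun g => ?_)), ?_⟩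
  · rw [hl g, oneIrr_apply, MonoidHom.mem_ker.1 (h ▸ Subgroup.mem_top g), Units.val_one]
  · rintro _ ⟨y, rfl⟩
    by_cases hy : y = 1
    · rw [hy, map_one]; exact one_mem _
    rw [MonoidHom.mem_ker, ← Units.val_eq_one, ← hl, vb y hy, ha.2, Int.cast_one]

end Cfsg.Agent.Lib.SquareSylow
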