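import Cfsg.Agent.Lib.SquareSylow.Lift
import Cfsg.Agent.Lib.FreeInertial.Fourier
import Cfsg.Agent.Lib.Char.Linear

/-!
Orbit sums of linear characters under a group of automorphisms without fixed points.
-/

set_option autoImplicit false
set_option linter.unusedSectionVars false
set_option linter.style.haveILetI false

namespace Cfsg.Agent.Lib.SquareSylow

open Cfsg Cfsg.Agent.Lib Cfsg.Agent.Lib.FreeInertial
open scoped ComplexConjugate

universe u

variable {A : Type u} [CommGroup A] [Fintype A] {E : Subgroup (MulAut A)} [Fintype E]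

theorem conj_linear (l : A →* ℂˣ) (x : A) : conj (l x : ℂ) = (l x⁻¹ : ℂ) := by
  have h := Char.linear_conj_mul l x
  rw [map_inv, Units.val_inv_eq_inv_val, eq_inv_of_mul_eq_one_right h]

/-- The sum of the orbit of a linear character. -/
noncomputable def orbSum (E : Subgroup (MulAut A)) [Fintype E] (l : A →* ℂˣ) (a : A) : ℂ :=
  ∑ α : E, (l ((α : MulAut A) a) : ℂ)

/-- The indicator of an orbit. -/
noncomputable def orbInd (E : Subgroup (MulAut A)) [Fintype E] [DecidableEq A] (x a : A) : ℂ :=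
  ∑ α : E, if (α : MulAut A) a = x then 1 else 0

theorem inv_orbSum (l : A →* ℂˣ) : Inv E (orbSum E l) := by
  intro α hα a
  exact Fintype.sum_equiv (Equiv.mulRight (⟨α, hα⟩ : E)) _ _ fun β => rfl

theorem inv_orbInd [DecidableEq A] (x : A) : Inv E (orbInd E x) := by
  intro α hα a
  exact Fintype.sum_equiv (Equiv.mulRight (⟨α, hα⟩ : E)) _ _ fun β => rfl

theorem isCharacter_orbSum (l : A →* ℂˣ) : IsCharacter A (orbSum E l) := by
  have h1 : ∀ m : A →* ℂˣ, IsCharacter A fun a => (m a : ℂ) := fun m => by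
    have := Char.isCharacter_of_isIrr (Char.isIrrCharacter_linear_mul (G := A) Char.isIrrCharacter_one m)
    simpa using this
  have : orbSum E l = ∑ α : E, fun a => (l ((α : MulAut A) a) : ℂ) := by
    funext a
    simp [orbSum]
  rw [this]
  exact Char.isCharacter_sum _ _ fun α _ => h1 (l.comp (α : MulAut A).toMonoidHom)

theorem orbSum_one (a : A) : orbSum E (1 : A →* ℂˣ) a = Fintype.card E := by
  simp [orbSum]

theorem orbSum_at_one (l : A →* ℂˣ) : orbSum E l 1 = Fintype.card E := by
  simp [orbSum]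

theorem orbSum_comp (l : A →* ℂˣ) (α : E) (a : A) :
    orbSum E (l.comp (α : MulAut A).toMonoidHom) a = orbSum E l a :=
  Fintype.sum_equiv (Equiv.mulLeft α) _ _ fun β => rfl

open scoped Classical in
theorem sum_orbSum_mul (l m : A →* ℂˣ) :
    ∑ a : A, orbSum E l a * conj (orbSum E m a) =
      (Fintype.card A : ℂ) * ∑ α : E, ∑ β : E,
        if l.comp (α : MulAut A).toMonoidHom = m.comp (β : MulAut A).toMonoidHom then 1 else 0 := by
  simp only [orbSum, map_sum, Finset.sum_mul_sum]
  rw [Finset.sum_comm, Finset.mul_sum]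
  refine Finset.sum_congr rfl fun α _ => ?_
  rw [Finset.sum_comm, Finset.mul_sum]
  refine Finset.sum_congr rfl fun β _ => ?_
  rw [show ∑ a : A, (l ((α : MulAut A) a) : ℂ) * conj (m ((β : MulAut A) a) : ℂ) =
      ∑ a : A, (((l.comp (α : MulAut A).toMonoidHom) * (m.comp (β : MulAut A).toMonoidHom)⁻¹) a : ℂ) from
    Finset.sum_congr rfl fun a _ => by
      rw [conj_linear, map_inv]
      rfl]
  rw [sum_char]
  split_ifs with h1 h2 h2
  · rw [mul_one]
  · exact absurd (mul_inv_eq_one.1 h1) h2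
  · exact absurd (mul_inv_eq_one.2 h2) h1
  · rw [mul_zero]

theorem sum_orbSum {l : A →* ℂˣ} (hl : l ≠ 1) : ∑ a : A, orbSum E l a = 0 := by
  classical
  simp only [orbSum]
  rw [Finset.sum_comm]
  refine Finset.sum_eq_zero fun α _ => ?_
  rw [Fintype.sum_equiv (α : MulAut A).toEquiv (fun a => (l ((α : MulAut A) a) : ℂ)) (fun a => (l a : ℂ))
    fun a => rfl, sum_char, if_neg hl]

/-- Column orthogonality along orbit sums. -/
theorem sum_conj_mul_orbSum [DecidableEq A] (x a : A) :
    ∑ l : A →* ℂˣ, conj (l x : ℂ) * orbSum E l a = (Fintype.card A : ℂ) * orbInd E x a := by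
  simp only [orbSum, orbInd, Finset.mul_sum]
  rw [Finset.sum_comm]
  refine Finset.sum_congr rfl fun α _ => ?_
  rw [show ∑ l : A →* ℂˣ, conj (l x : ℂ) * (l ((α : MulAut A) a) : ℂ) =
      ∑ l : A →* ℂˣ, (l (x⁻¹ * (α : MulAut A) a) : ℂ) from Finset.sum_congr rfl fun l _ => by
    rw [conj_linear, map_mul, Units.val_mul], sum_dual]
  by_cases h : (α : MulAut A) a = x
  · rw [if_pos h, if_pos (by rw [h, inv_mul_cancel]), mul_one]
  · rw [if_neg h, if_neg fun h' => h (inv_mul_eq_one.1 h').symm, mul_zero]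

theorem sum_conj_dual {x : A} (hx : x ≠ 1) : ∑ l : A →* ℂˣ, conj (l x : ℂ) = 0 := by
  classical
  rw [Finset.sum_congr rfl fun l _ => conj_linear l x, sum_dual, if_neg (by simpa using hx)]

/-- The square of an orbit sum at an involution is orthogonal to elements of order above two. -/
theorem sum_conj_mul_sq {x t : A} (ht : t * t = 1) (hx : x * x ≠ 1) :
    ∑ l : A →* ℂˣ, conj (l x : ℂ) * (orbSum E l t * orbSum E l t) = 0 := by
  classical
  simp only [orbSum]
  simp only [Finset.sum_mul, Finset.mul_sum]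
  rw [Finset.sum_comm]
  refine Finset.sum_eq_zero fun β _ => ?_
  rw [Finset.sum_comm]
  refine Finset.sum_eq_zero fun α _ => ?_
  rw [show ∑ l : A →* ℂˣ, conj (l x : ℂ) * ((l ((α : MulAut A) t) : ℂ) * (l ((β : MulAut A) t) : ℂ)) =
      ∑ l : A →* ℂˣ, (l (x⁻¹ * ((α : MulAut A) t * (β : MulAut A) t)) : ℂ) from
    Finset.sum_congr rfl fun l _ => by rw [conj_linear, map_mul, map_mul, Units.val_mul, Units.val_mul],
    sum_dual, if_neg]
  intro h
  refine hx ?_
  rw [inv_mul_eq_one.1 h, mul_mul_mul_comm, ← map_mul, ← map_mul, ht, map_one, map_one, one_mul]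

/-- Representatives of the orbits of nontrivial linear characters. -/
structure Reps (E : Subgroup (MulAut A)) (X : Type u) (rep : X → (A →* ℂˣ)) : Prop where
  ne_one : ∀ i, rep i ≠ 1
  indep : ∀ i j, ∀ α ∈ E, (rep j).comp (α : MulAut A).toMonoidHom = rep i → i = j ∧ α = 1
  cover : ∀ l : A →* ℂˣ, l ≠ 1 → ∃ i, ∃ α ∈ E, (rep i).comp (α : MulAut A).toMonoidHom = l

namespace Reps

variable {X : Type u} [Fintype X] {rep : X → (A →* ℂˣ)}

theorem eq_of_comp (hR : Reps E X rep) {i k : X} {α β : E}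
    (h : (rep i).comp (α : MulAut A).toMonoidHom = (rep k).comp (β : MulAut A).toMonoidHom) :
    i = k ∧ α = β := by
  have h' : (rep k).comp ((β : MulAut A) * (α : MulAut A)⁻¹).toMonoidHom = rep i := by
    ext a
    have := DFunLike.congr_fun h ((α : MulAut A)⁻¹ a)
    simp only [MonoidHom.comp_apply, MulEquiv.coe_toMonoidHom, MulAut.apply_inv_self] at this
    simp only [MonoidHom.comp_apply, MulEquiv.coe_toMonoidHom, MulAut.mul_apply]
    rw [this]
  obtain ⟨rfl, hab⟩ := hR.indep _ _ _ (mul_mem β.2 (inv_mem α.2)) h'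
  exact ⟨rfl, Subtype.ext (mul_inv_eq_one.1 hab).symm⟩

theorem sum_orbit (hR : Reps E X rep) (F : (A →* ℂˣ) → ℂ) :
    ∑ l : A →* ℂˣ, F l = F 1 + ∑ i : X, ∑ α : E, F ((rep i).comp (α : MulAut A).toMonoidHom) := by
  classical
  rw [← Finset.add_sum_erase _ _ (Finset.mem_univ (1 : A →* ℂˣ))]
  congr 1
  rw [← Fintype.sum_prod_type']
  symm
  refine Finset.sum_bij (fun q _ => (rep q.1).comp (q.2 : MulAut A).toMonoidHom) (fun q _ => ?_)
    (fun q _ r _ h => ?_) (fun l hl => ?_) (fun q _ => rfl)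
  · refine Finset.mem_erase.2 ⟨fun h => hR.ne_one q.1 (MonoidHom.ext fun a => ?_), Finset.mem_univ _⟩
    have := DFunLike.congr_fun h ((q.2 : MulAut A)⁻¹ a)
    simpa using this
  · obtain ⟨h1, h2⟩ := hR.eq_of_comp h
    exact Prod.ext h1 h2
  · obtain ⟨i, α, hα, h⟩ := hR.cover l (Finset.mem_erase.1 hl).1
    exact ⟨(i, ⟨α, hα⟩), Finset.mem_univ _, h⟩

theorem sum_orbSum_mul_eq (hR : Reps E X rep) [DecidableEq X] (i k : X) :
    ∑ a : A, orbSum E (rep i) a * conj (orbSum E (rep k) a) =
      if i = k then (Fintype.card A : ℂ) * Fintype.card E else 0 := by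
  classical
  rw [sum_orbSum_mul]
  split_ifs with h
  · subst h
    congr 1
    rw [Finset.sum_congr rfl fun α _ => Finset.sum_eq_single α (fun β _ hβ => if_neg fun e =>
      hβ (hR.eq_of_comp e).2.symm) (by simp)]
    simp
  · rw [Finset.sum_eq_zero fun α _ => Finset.sum_eq_zero fun β _ => if_neg fun e =>
      h (hR.eq_of_comp e).1, mul_zero]

theorem sum_conj_orbSum (hR : Reps E X rep) {x : A} (hx : x ≠ 1) :
    ∑ i : X, conj (orbSum E (rep i) x) = -1 := by
  have h := hR.sum_orbit fun l => conj (l x : ℂ)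
  rw [sum_conj_dual hx] at h
  simp only [MonoidHom.one_apply, Units.val_one, map_one] at h
  simp only [orbSum, map_sum]
  simp only [MonoidHom.comp_apply, MulEquiv.coe_toMonoidHom] at h
  linear_combination -h

theorem sum_conj_orbSum_sq (hR : Reps E X rep) {x t : A} (ht : t * t = 1) (hx : x * x ≠ 1) :
    ∑ i : X, conj (orbSum E (rep i) x) * (orbSum E (rep i) t * orbSum E (rep i) t) =
      -((Fintype.card E : ℂ) * Fintype.card E) := by
  have h := hR.sum_orbit fun l => conj (l x : ℂ) * (orbSum E l t * orbSum E l t)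
  rw [sum_conj_mul_sq ht hx] at h
  simp only [orbSum_comp, ← Finset.sum_mul, MonoidHom.one_apply, Units.val_one, map_one, one_mul,
    orbSum_one] at h
  simp only [MonoidHom.comp_apply, MulEquiv.coe_toMonoidHom, ← map_sum] at h
  simp only [orbSum] at h ⊢
  linear_combination -h

/-- The indicator of an orbit in terms of orbit sums. -/
theorem card_smul_orbInd (hR : Reps E X rep) [DecidableEq A] (i₀ : X) {x : A} (hx : x ≠ 1) :
    (Fintype.card A : ℂ) • orbInd E x =
      ∑ i : X, conj (orbSum E (rep i) x) • (orbSum E (rep i) - orbSum E (rep i₀)) +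
        (orbSum E 1 - orbSum E (rep i₀)) := by
  funext a
  simp only [Pi.add_apply, Pi.sub_apply, Pi.smul_apply, Finset.sum_apply, smul_eq_mul, mul_sub,
    Finset.sum_sub_distrib, ← Finset.sum_mul, hR.sum_conj_orbSum hx]
  rw [← sum_conj_mul_orbSum x a, hR.sum_orbit]
  simp only [orbSum_comp, ← Finset.sum_mul, MonoidHom.one_apply, Units.val_one, map_one, one_mul,
    MonoidHom.comp_apply, MulEquiv.coe_toMonoidHom, ← map_sum]
  simp only [orbSum]
  ring

end Reps

end Cfsg.Agent.Lib.SquareSylow
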