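import Cfsg.Agent.Lib.Block.PElemSum
import Cfsg.Agent.Lib.Star.Main
import Cfsg.Agent.Lib.Hall.Basic
import Cfsg.Agent.Lib.Char.BrauerInduction
import Cfsg.Agent.Lib.Char.Induced
import Mathlib.GroupTheory.Transfer

/-!
Functions on an abelian Sylow 2-subgroup, invariant under its automiser, as functions on the whole
group through the 2-parts of the elements.
-/

set_option autoImplicit false
set_option linter.unusedSectionVars false
set_option linter.style.haveILetI false

namespace Cfsg.Agent.Lib.SquareSylow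

open Cfsg Cfsg.Agent.Lib Cfsg.Agent.Lib.Block
open Cfsg.Agent.Lib.Star (pp isPPart_pp pp_eq)
open scoped ComplexConjugate

universe u

variable {G : Type u} [Group G] [Finite G] {A : Type u} [CommGroup A] [Fintype A]

/-- An abelian Sylow 2-subgroup with a fixed-point-free automiser of order three. -/
structure Frame (j : A →* G) (E : Subgroup (MulAut A)) : Prop where
  inj : Function.Injective j
  sylow : ∃ P : Sylow 2 G, j.range = (P : Subgroup G)
  card_E : Nat.card E = 3
  free : ∀ α ∈ E, ∀ a : A, a ≠ 1 → α a = a → α = 1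
  fus : ∀ a b : A, IsConj (j a) (j b) ↔ ∃ α ∈ E, α a = b
  compl : ∀ a : A, a ≠ 1 →
    Nat.card (Cfsg.centralizerPPrimeCore 2 (j a)) * Nat.card A =
        Nat.card (Subgroup.centralizer ({j a} : Set G)) ∧
      ∀ v : G, Commute v (j a) → ¬ 2 ∣ orderOf v → v ∈ Cfsg.centralizerPPrimeCore 2 (j a)

/-- The invariant functions. -/
def Inv (E : Subgroup (MulAut A)) (f : A → ℂ) : Prop := ∀ α ∈ E, ∀ a, f (α a) = f a

/-- A member of the Sylow subgroup conjugate to the 2-part. -/
noncomputable def rep2 (j : A →* G) (g : G) : A :=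
  Classical.epsilon fun a : A => IsConj (j a) (pp 2 g)

/-- A function on the Sylow subgroup read through 2-parts. -/
noncomputable def lift (j : A →* G) (f : A → ℂ) (g : G) : ℂ := f (rep2 j g)

omit [Finite G] in
theorem lift_add (j : A →* G) (f h : A → ℂ) : lift j (f + h) = lift j f + lift j h := rfl

omit [Finite G] in
theorem lift_sub (j : A →* G) (f h : A → ℂ) : lift j (f - h) = lift j f - lift j h := rfl

omit [Finite G] in
theorem lift_smul (j : A →* G) (c : ℂ) (f : A → ℂ) : lift j (c • f) = c • lift j f := rfl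

omit [Finite G] in
theorem lift_zero (j : A →* G) : lift j (0 : A → ℂ) = 0 := rfl

omit [Finite G] in
theorem lift_sum {ι : Type*} (j : A →* G) (s : Finset ι) (f : ι → A → ℂ) :
    lift j (∑ i ∈ s, f i) = ∑ i ∈ s, lift j (f i) := by
  funext g
  simp [lift, Finset.sum_apply]

namespace Frame

variable {j : A →* G} {E : Subgroup (MulAut A)}

theorem pGroup (hF : Frame j E) : IsPGroup 2 A := by
  obtain ⟨P, hP⟩ := hF.sylow
  intro a
  obtain ⟨k, hk⟩ := P.2 ⟨j a, hP ▸ ⟨a, rfl⟩⟩
  exact ⟨k, hF.inj (by rw [map_pow, map_one]; exact congrArg Subtype.val hk)⟩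

theorem isPElem (hF : Frame j E) (a : A) : IsPElem 2 (j a) := by
  haveI : Fact (Nat.Prime 2) := ⟨Nat.prime_two⟩
  obtain ⟨P, hP⟩ := hF.sylow
  exact isPElem_of_mem P.2 (hP ▸ ⟨a, rfl⟩)

theorem exists_conj_of_isPElem (hF : Frame j E) {z : G} (hz : IsPElem 2 z) :
    ∃ a : A, IsConj (j a) z := by
  haveI : Fact (Nat.Prime 2) := ⟨Nat.prime_two⟩
  obtain ⟨P, hP⟩ := hF.sylow
  obtain ⟨Q, hQ⟩ := hz.isPGroup_zpowers.exists_le_sylow
  obtain ⟨g, hg⟩ := MulAction.exists_smul_eq G Q P
  have hmem : g * z * g⁻¹ ∈ (P : Subgroup G) := by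
    rw [← hg, Sylow.coe_subgroup_smul]
    exact Subgroup.smul_mem_pointwise_smul z (MulAut.conj g) _ (hQ (Subgroup.mem_zpowers z))
  rw [← hP] at hmem
  obtain ⟨a, ha⟩ := hmem
  exact ⟨a, isConj_iff.2 ⟨g⁻¹, by rw [ha]; group⟩⟩

theorem rep2_spec (hF : Frame j E) (g : G) : IsConj (j (rep2 j g)) (pp 2 g) := by
  haveI : Fact (Nat.Prime 2) := ⟨Nat.prime_two⟩
  obtain ⟨y, -, -, hy, -⟩ := isPPart_pp (p := 2) g
  exact Classical.epsilon_spec (hF.exists_conj_of_isPElem hy)

theorem lift_eq (hF : Frame j E) {f : A → ℂ} (hf : Inv E f) {g : G} {a : A}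
    (h : IsConj (j a) (pp 2 g)) : lift j f g = f a := by
  obtain ⟨α, hα, e⟩ := (hF.fus a (rep2 j g)).1 (h.trans (hF.rep2_spec g).symm)
  rw [lift, ← e, hf α hα]

theorem lift_one (hF : Frame j E) {f : A → ℂ} (hf : Inv E f) : lift j f 1 = f 1 := by
  haveI : Fact (Nat.Prime 2) := ⟨Nat.prime_two⟩
  refine hF.lift_eq hf ?_
  rw [map_one, pp_eq (isPPart_one_of_regular regular_one)]

theorem isClassFunction_lift (hF : Frame j E) {f : A → ℂ} (hf : Inv E f) :
    IsClassFunction G (lift j f) := by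
  haveI : Fact (Nat.Prime 2) := ⟨Nat.prime_two⟩
  intro g c
  refine hF.lift_eq hf ((hF.rep2_spec g).trans ?_)
  rw [pp_eq (IsPPart.conj (isPPart_pp (p := 2) g) c)]
  exact isConj_iff.2 ⟨c, rfl⟩

/-- Invariant generalized characters lift to generalized characters. -/
theorem isGeneralized_lift [Fintype G] (hF : Frame j E) {f : A → ℂ} (hf : Inv E f)
    (hgen : IsGeneralizedCharacter A f) : IsGeneralizedCharacter G (lift j f) := by
  classical
  haveI : Fact (Nat.Prime 2) := ⟨Nat.prime_two⟩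
  refine Char.brauer_characterization (hF.isClassFunction_lift hf) fun U q hq hU => ?_
  haveI := isNilpotent_elementary hq hU
  obtain ⟨S⟩ := (inferInstance : Nonempty (Sylow 2 U))
  haveI hSn : (S : Subgroup U).Normal :=
    Sylow.normal_of_normalizerCondition Group.normalizerCondition_of_isNilpotent S
  set O : Subgroup U := pPrimeCore 2 U with hO
  haveI hOn : O.Normal := Hall.pPrimeCore_normal 2
  have hdis : Disjoint (S : Subgroup U) O := Subgroup.disjoint_of_coprime_natCard (by
    obtain ⟨n, hn⟩ := S.2.exists_card_eq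
    rw [hn]
    exact (Hall.coprime_card_pPrimeCore 2).symm.pow_left n)
  have hcomm : ∀ a ∈ (S : Subgroup U), ∀ b ∈ O, Commute a b := fun a ha b hb =>
    Subgroup.commute_of_normal_of_disjoint _ _ hSn hOn hdis a b ha hb
  have h2mem : ∀ z : U, IsPElem 2 z → z ∈ (S : Subgroup U) := by
    intro z hz
    obtain ⟨Q, hQ⟩ := hz.isPGroup_zpowers.exists_le_sylow
    letI := Sylow.unique_of_normal S hSn
    rw [Subsingleton.elim Q S] at hQ
    exact hQ (Subgroup.mem_zpowers z)
  have homem : ∀ z : U, ¬ 2 ∣ orderOf z → z ∈ O := by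
    intro z hz
    have hsup : ∀ (r : ℕ), r.Prime → r ≠ 2 → ∀ R : Sylow r U, (R : Subgroup U) ≤ O := by
      intro r hr hr2 R
      haveI := Fact.mk hr
      haveI : (R : Subgroup U).Normal :=
        Sylow.normal_of_normalizerCondition Group.normalizerCondition_of_isNilpotent R
      obtain ⟨n, hn⟩ := R.2.exists_card_eq
      exact Hall.le_pPrimeCore (by rw [hn]; exact ((Nat.coprime_primes hr Nat.prime_two).2 hr2).pow_left n)
    have hidx : Nat.Coprime (orderOf z) O.index := by
      refine Nat.coprime_of_dvd fun r hr hrz hri => ?_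
      haveI := Fact.mk hr
      have hr2 : r ≠ 2 := fun e => hz (e ▸ hrz)
      obtain ⟨R⟩ := (inferInstance : Nonempty (Sylow r U))
      exact R.not_dvd_index (hri.trans (Subgroup.index_dvd_of_le (hsup r hr hr2 R)))
    have h1 : (QuotientGroup.mk' O z) = 1 := by
      rw [← orderOf_eq_one_iff]
      exact Nat.dvd_one.1 (hidx ▸ Nat.dvd_gcd (orderOf_map_dvd _ z)
        (by rw [Subgroup.index_eq_card]; exact orderOf_dvd_natCard _))
    exact (QuotientGroup.eq_one_iff z).1 h1
  have hsplit : ∀ e : U, ∃ y ∈ O, pp 2 e ∈ (S : Subgroup U) ∧ pp 2 e * y = e := by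
    intro e
    obtain ⟨y, h1, -, h3, h4⟩ := isPPart_pp (p := 2) e
    exact ⟨y, homem y h4, h2mem _ h3, h1⟩
  have hmul : ∀ e e' : U, pp 2 (e * e') = pp 2 e * pp 2 e' := by
    intro e e'
    obtain ⟨y, hy, hs, he⟩ := hsplit e
    obtain ⟨y', hy', hs', he'⟩ := hsplit e'
    refine pp_eq ⟨y * y', ?_, hcomm _ (mul_mem hs hs') _ (mul_mem hy hy'),
      isPElem_of_mem S.2 (mul_mem hs hs'), ?_⟩
    · conv_rhs => rw [← he, ← he']
      rw [(hcomm _ hs' _ hy).mul_mul_mul_comm]
    · intro h
      refine Hall.not_dvd_card_pPrimeCore (G := U) Nat.prime_two (h.trans ?_)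
      rw [← Subgroup.orderOf_mk (y * y') (mul_mem hy hy')]
      exact orderOf_dvd_natCard _
  have hcoe : ∀ e : U, pp 2 (e : G) = ((pp 2 e : U) : G) := by
    intro e
    obtain ⟨y, h1, h2, h3, h4⟩ := isPPart_pp (p := 2) e
    refine pp_eq ⟨(y : G), ?_, h2.map U.subtype, ?_, ?_⟩
    · rw [← Subgroup.coe_mul, h1]
    · obtain ⟨k, hk⟩ := h3
      exact ⟨k, by rw [Subgroup.orderOf_coe, hk]⟩
    · rwa [Subgroup.orderOf_coe]
  obtain ⟨P, hP⟩ := hF.sylow
  obtain ⟨Q, hQ⟩ := (S.2.map U.subtype).exists_le_sylow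
  obtain ⟨c, hc⟩ := MulAction.exists_smul_eq G Q P
  have hin : ∀ e : U, ∃ a : A, j a = c * ((pp 2 e : U) : G) * c⁻¹ := by
    intro e
    obtain ⟨y, hy, hs, he⟩ := hsplit e
    have hmem : c * ((pp 2 e : U) : G) * c⁻¹ ∈ (P : Subgroup G) := by
      rw [← hc, Sylow.coe_subgroup_smul]
      exact Subgroup.smul_mem_pointwise_smul _ (MulAut.conj c) _ (hQ ⟨_, hs, rfl⟩)
    rwa [← hP] at hmem
  choose π hπ using hin
  let πh : U →* A := MonoidHom.mk' π fun e e' => hF.inj (by
    rw [map_mul, hπ, hπ, hπ, hmul, Subgroup.coe_mul]; group)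
  obtain ⟨f₁, f₂, h₁, h₂, rfl⟩ := hgen
  refine ⟨fun e => f₁ (πh e), fun e => f₂ (πh e), Char.isCharacter_comp h₁ πh,
    Char.isCharacter_comp h₂ πh, funext fun e => ?_⟩
  rw [hF.lift_eq hf (a := πh e) (isConj_iff.2 ⟨c⁻¹, ?_⟩)]
  · rfl
  · show c⁻¹ * j (π e) * c⁻¹⁻¹ = pp 2 (e : G)
    rw [hπ, hcoe]; group

theorem card_orbit [DecidableEq A] [Fintype E] {a : A} (hF : Frame j E) (ha : a ≠ 1) :
    (Finset.univ.image fun α : E => (α : MulAut A) a).card = 3 := by
  rw [Finset.card_image_of_injective _ fun α β h => ?_, Finset.card_univ, ← Nat.card_eq_fintype_card,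
    hF.card_E]
  refine Subtype.ext (inv_mul_eq_one.1 (hF.free _ (mul_mem (inv_mem α.2) β.2) a ha ?_))
  rw [MulAut.mul_apply, ← (show (α : MulAut A) a = (β : MulAut A) a from h), MulAut.inv_apply,
    MulEquiv.symm_apply_apply]

/-- The number of elements in the section of `j a`. -/
theorem card_section [Fintype G] (hF : Frame j E) {a : A}
    [DecidablePred fun g : G => IsConj (j a) (pp 2 g)] (ha : a ≠ 1) :
    (Finset.univ.filter fun g : G => IsConj (j a) (pp 2 g)).card * Nat.card A = Nat.card G := by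
  classical
  haveI : Fact (Nat.Prime 2) := ⟨Nat.prime_two⟩
  obtain ⟨hcard, hmem⟩ := hF.compl a ha
  set C := Subgroup.centralizer ({j a} : Set G) with hC
  set K := Cfsg.centralizerPPrimeCore 2 (j a) with hK
  have hKC : K ≤ C := by
    rintro _ ⟨w, -, rfl⟩
    exact w.2
  have hKodd : ∀ v : K, ¬ 2 ∣ orderOf (v : G) := by
    rintro ⟨v, hv⟩ hd
    obtain ⟨w, hw, rfl⟩ := hv
    have hd' : 2 ∣ orderOf w := by rw [← Subgroup.orderOf_coe]; exact hd
    refine Hall.not_dvd_card_pPrimeCore (G := C) Nat.prime_two (hd'.trans ?_)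
    rw [← Subgroup.orderOf_mk w hw]
    exact orderOf_dvd_natCard _
  have hpp : ∀ (c : G) (v : K), pp 2 (c * (j a * v) * c⁻¹) = c * j a * c⁻¹ := fun c v =>
    pp_eq (IsPPart.conj (isPPart_mul (hF.isPElem a) (hKodd v)
      (Subgroup.mem_centralizer_singleton_iff.1 (hKC v.2)).symm) c)
  let φ : (G ⧸ C) × K → {g : G // IsConj (j a) (pp 2 g)} := fun x =>
    ⟨x.1.out * (j a * x.2) * x.1.out⁻¹, isConj_iff.2 ⟨x.1.out, (hpp _ _).symm⟩⟩
  have hφ : Function.Bijective φ := by
    constructor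
    · rintro ⟨q, v⟩ ⟨r, w⟩ h
      have h' : q.out * (j a * v) * q.out⁻¹ = r.out * (j a * w) * r.out⁻¹ := congrArg Subtype.val h
      have hq : q = r := by
        have e := hpp q.out v
        rw [h', hpp] at e
        rw [← QuotientGroup.out_eq' q, ← QuotientGroup.out_eq' r, QuotientGroup.eq]
        refine Subgroup.mem_centralizer_singleton_iff.2 ?_
        calc q.out⁻¹ * r.out * j a = q.out⁻¹ * (r.out * j a * r.out⁻¹) * r.out := by group
          _ = j a * (q.out⁻¹ * r.out) := by rw [e]; group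
      subst hq
      exact Prod.ext rfl (Subtype.ext (mul_left_cancel (mul_left_cancel (mul_right_cancel h'))))
    · rintro ⟨g, hg⟩
      obtain ⟨c, hc⟩ := isConj_iff.1 hg
      set q : G ⧸ C := QuotientGroup.mk c
      have hqa : q.out * j a * q.out⁻¹ = pp 2 g := by
        have hd' : c⁻¹ * q.out ∈ C := QuotientGroup.eq.1 (QuotientGroup.out_eq' q).symm
        have hd := Subgroup.mem_centralizer_singleton_iff.1 hd'
        calc q.out * j a * q.out⁻¹ = c * (c⁻¹ * q.out * j a) * q.out⁻¹ := by group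
          _ = c * (j a * (c⁻¹ * q.out)) * q.out⁻¹ := by rw [hd]
          _ = c * j a * c⁻¹ := by group
          _ = pp 2 g := hc
      obtain ⟨y, h1, h2, -, h4⟩ := isPPart_pp (p := 2) g
      have hv : q.out⁻¹ * y * q.out ∈ K := by
        refine hmem _ ?_ ?_
        · have := h2.symm.map (MulAut.conj q.out⁻¹).toMonoidHom
          simp only [MulEquiv.coe_toMonoidHom, MulAut.conj_apply, inv_inv] at this
          rwa [show q.out⁻¹ * pp 2 g * q.out = j a by rw [← hqa]; group] at this
        · rwa [show q.out⁻¹ * y * q.out = q.out⁻¹ * y * q.out⁻¹⁻¹ by rw [inv_inv], orderOf_conj_eq]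
      refine ⟨(q, ⟨_, hv⟩), Subtype.ext ?_⟩
      show q.out * (j a * (q.out⁻¹ * y * q.out)) * q.out⁻¹ = g
      conv_rhs => rw [← h1, ← hqa]
      group
  have h := Nat.card_eq_of_bijective φ hφ
  rw [Nat.card_prod, ← Subgroup.index_eq_card] at h
  have e : (Finset.univ.filter fun g : G => IsConj (j a) (pp 2 g)).card =
      Nat.card {g : G // IsConj (j a) (pp 2 g)} := by
    rw [Nat.card_eq_fintype_card, Fintype.card_subtype]
  rw [e, ← h, mul_assoc, hcard, Subgroup.index_mul_card]

/-- Summing over the group is summing over the Sylow subgroup. -/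
theorem sum_lift [Fintype G] (hF : Frame j E) {f : A → ℂ} (hf : Inv E f) (h1 : f 1 = 0) :
    3 * (Nat.card A : ℂ) * ∑ g : G, lift j f g = (Nat.card G : ℂ) * ∑ a : A, f a := by
  classical
  haveI : Fact (Nat.Prime 2) := ⟨Nat.prime_two⟩
  letI := Fintype.ofFinite E
  have hg : ∀ g : G, 3 * lift j f g = ∑ a : A, if IsConj (j a) (pp 2 g) then f a else 0 := by
    intro g
    rw [Finset.sum_congr rfl fun a _ => show (if IsConj (j a) (pp 2 g) then f a else 0) =
      (if IsConj (j a) (pp 2 g) then lift j f g else 0) by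
        split_ifs with h
        · rw [hF.lift_eq hf h]
        · rfl]
    rw [← Finset.sum_filter, Finset.sum_const, nsmul_eq_mul]
    by_cases hr : rep2 j g = 1
    · rw [lift, hr, h1, mul_zero, mul_zero]
    · have : (Finset.univ.filter fun a : A => IsConj (j a) (pp 2 g)) =
          Finset.univ.image fun α : E => (α : MulAut A) (rep2 j g) := by
        ext a
        simp only [Finset.mem_filter, Finset.mem_univ, true_and, Finset.mem_image]
        constructor
        · intro h
          obtain ⟨α, hα, e⟩ := (hF.fus _ _).1 ((hF.rep2_spec g).trans h.symm)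
          exact ⟨⟨α, hα⟩, e⟩
        · rintro ⟨α, rfl⟩
          exact ((hF.fus _ _).2 ⟨α, α.2, rfl⟩).symm.trans (hF.rep2_spec g)
      rw [this, hF.card_orbit hr, Nat.cast_ofNat]
  rw [mul_assoc, mul_left_comm, Finset.mul_sum, Finset.sum_congr rfl fun g _ => hg g, Finset.sum_comm,
    Finset.mul_sum, Finset.mul_sum]
  refine Finset.sum_congr rfl fun a _ => ?_
  rw [← Finset.sum_filter, Finset.sum_const, nsmul_eq_mul]
  by_cases ha : a = 1
  · rw [ha, h1, mul_zero, mul_zero, mul_zero]
  · rw [← hF.card_section (a := a) ha]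
    push_cast
    ring

/-- The isometry. -/
theorem classInner_lift [Fintype G] (hF : Frame j E) {f h : A → ℂ} (hf : Inv E f) (hh : Inv E h)
    (h1 : f 1 * conj (h 1) = 0) :
    classInner (lift j f) (lift j h) = (3 * (Nat.card A : ℂ))⁻¹ * ∑ a : A, f a * conj (h a) := by
  have hinv : Inv E fun a => f a * conj (h a) := fun α hα a => by
    show f (α a) * conj (h (α a)) = _
    rw [hf α hα, hh α hα]
  have hs := hF.sum_lift hinv h1
  have hA : (Nat.card A : ℂ) ≠ 0 := Nat.cast_ne_zero.2 Nat.card_pos.ne'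
  have hG : (Nat.card G : ℂ) ≠ 0 := Nat.cast_ne_zero.2 Nat.card_pos.ne'
  rw [classInner]
  simp only [lift] at hs ⊢
  field_simp
  linear_combination hs

end Frame

end Cfsg.Agent.Lib.SquareSylow
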