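import Cfsg.Agent.Lib.SquareSylow.Chars
import Cfsg.Agent.Lib.Block.Homocyclic
import Cfsg.Agent.Lib.FreeInertial.Homocyclic
import Cfsg.Agent.Lib.Involution.ZStarBasic
import Mathlib.GroupTheory.Transfer

/-!
The frame of a homocyclic Sylow 2-subgroup of rank two, and the induction giving its normality.
-/

set_option autoImplicit false
set_option linter.unusedSectionVars false
set_option linter.style.haveILetI false

namespace Cfsg.Agent.Lib.SquareSylow

open Cfsg Cfsg.Agent.Lib

universe u

variable {G : Type u} [Group G] [Finite G]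

/-- Under a trivial automiser the elements of odd order form the core, a complement. -/
theorem core_of_normalizer_le (T : Sylow 2 G)
    (hT : Subgroup.normalizer ((T : Subgroup G) : Set G) ≤ Subgroup.centralizer (T : Set G)) :
    (Cfsg.pPrimeCore 2 G).IsComplement' (T : Subgroup G) ∧
      ∀ w : G, ¬ 2 ∣ orderOf w → w ∈ Cfsg.pPrimeCore 2 G := by
  haveI : Fact (Nat.Prime 2) := ⟨Nat.prime_two⟩
  have hc := MonoidHom.ker_transferSylow_isComplement' T hT
  set K := (MonoidHom.transferSylow T hT).ker with hK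
  have hodd := MonoidHom.not_dvd_card_ker_transferSylow T hT
  have hw : ∀ w : G, ¬ 2 ∣ orderOf w → w ∈ K := by
    intro w hw
    obtain ⟨n, hn⟩ := T.2.exists_card_eq
    have h1 : orderOf (QuotientGroup.mk' K w) ∣ 2 ^ n := by
      rw [← hn, ← hc.symm.index_eq_card, Subgroup.index_eq_card]
      exact orderOf_dvd_natCard _
    have h2 : QuotientGroup.mk' K w = 1 := orderOf_eq_one_iff.1 (Nat.eq_one_of_dvd_coprimes
      ((Nat.prime_two.coprime_iff_not_dvd.2 hw).pow_left n) h1 (orderOf_map_dvd _ w))
    exact (QuotientGroup.eq_one_iff w).1 h2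
  have hKcore : K = Cfsg.pPrimeCore 2 G := by
    refine le_antisymm (Hall.le_pPrimeCore (Nat.prime_two.coprime_iff_not_dvd.2 hodd).symm) fun w h => ?_
    refine hw w fun hd => Hall.not_dvd_card_pPrimeCore (G := G) Nat.prime_two (hd.trans ?_)
    rw [← Subgroup.orderOf_mk w h]
    exact orderOf_dvd_natCard _
  rw [← hKcore]
  exact ⟨hc, hw⟩

/-- With trivial odd core a self-centralizing automiser forces the whole group. -/
theorem eq_top_of_normalizer_le (hO : oddCore G = ⊥) (T : Sylow 2 G)
    (hT : Subgroup.normalizer ((T : Subgroup G) : Set G) ≤ Subgroup.centralizer (T : Set G)) :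
    (T : Subgroup G) = ⊤ := by
  have h := (core_of_normalizer_le T hT).1
  rw [show Cfsg.pPrimeCore 2 G = ⊥ from hO] at h
  exact Subgroup.isComplement'_bot_left.1 h

/-- Normality of a homocyclic Sylow 2-subgroup of rank two. -/
theorem normal_of_square (m : ℕ) (hm : 2 ≤ m) : ∀ (n : ℕ) (G : Type u) [Group G] [Finite G]
    (P : Sylow 2 G), Nat.card G = n →
    ((P : Subgroup G) ≃* Multiplicative (ZMod (2 ^ m) × ZMod (2 ^ m))) → oddCore G = ⊥ →
    (P : Subgroup G).Normal := by
  intro n
  induction n using Nat.strong_induction_on with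
  | _ n ih =>
  intro G _ _ P hn e hO
  classical
  haveI : Fact (Nat.Prime 2) := ⟨Nat.prime_two⟩
  haveI : NeZero (2 ^ m) := ⟨pow_ne_zero _ two_ne_zero⟩
  by_cases hle : Subgroup.normalizer ((P : Subgroup G) : Set G) ≤ Subgroup.centralizer (P : Set G)
  · rw [eq_top_of_normalizer_le hO P hle]
    infer_instance
  letI : Fintype G := Fintype.ofFinite G
  have hcomm : ∀ u v : (P : Subgroup G), u * v = v * u := fun u v =>
    e.injective (by rw [map_mul, map_mul, mul_comm])
  letI : CommGroup (P : Subgroup G) := { (inferInstance : Group (P : Subgroup G)) with mul_comm := hcomm }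
  haveI : IsMulCommutative (P : Subgroup G) := ⟨⟨hcomm⟩⟩
  letI : Fintype (P : Subgroup G) := Fintype.ofFinite _
  set j : (P : Subgroup G) →* G := (P : Subgroup G).subtype with hj
  set ψ := (P : Subgroup G).normalizerMonoidHom with hψ
  set E := ψ.range with hE
  have hcardE : Nat.card E = 3 := by
    rw [hE, ← Subgroup.index_ker, hψ, Subgroup.normalizerMonoidHom_ker]
    rcases Block.Homocyclic.relIndex_cases P m (by omega) e with h | h
    · exact absurd (Subgroup.relIndex_eq_one.1 h) hle
    · exact h
  obtain ⟨a, b, c, hab, hac, hbc, ha, hb, hc, hall⟩ :=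
    Block.Homocyclic.three_involutions (by omega : 1 ≤ m) e
  have hfree := (FreeInertial.free_of_three P.2 hab hac hbc ha hb hc hall E
    (by rw [hcardE]; decide)).2
  have hψval : ∀ (k : Subgroup.normalizer ((P : Subgroup G) : Set G)) (u : (P : Subgroup G)),
      ((ψ k u : (P : Subgroup G)) : G) = (k : G) * u * (k : G)⁻¹ := fun k u => rfl
  have hF : Frame j E := by
    refine ⟨Subtype.coe_injective, ⟨P, Subgroup.range_subtype _⟩, hcardE, hfree, fun u v => ?_,
      fun u hu => ?_⟩
    · constructor
      · intro h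
        obtain ⟨g, hg⟩ := isConj_iff.1 h
        obtain ⟨k, hk, hk'⟩ := P.conj_eq_normalizer_conj_of_mem (u : G) g⁻¹ u.2 (by
          rw [inv_inv]; exact hg.symm ▸ v.2)
        refine ⟨ψ ⟨k, hk⟩⁻¹, ⟨_, rfl⟩, Subtype.ext ?_⟩
        rw [hψval]
        show k⁻¹ * (u : G) * k⁻¹⁻¹ = v
        rw [inv_inv, ← hk', inv_inv]
        exact hg
      · rintro ⟨_, ⟨k, rfl⟩, rfl⟩
        exact isConj_iff.2 ⟨k, (hψval k u).symm⟩
    · set C := Subgroup.centralizer ({j u} : Set G) with hC
      have hPC : (P : Subgroup G) ≤ C := fun w hw => Subgroup.mem_centralizer_singleton_iff.2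
        (congrArg Subtype.val (hcomm ⟨w, hw⟩ u))
      set T : Sylow 2 C := P.subtype hPC with hT
      have hTle : Subgroup.normalizer ((T : Subgroup C) : Set C) ≤
          Subgroup.centralizer (T : Set C) := by
        intro k hk
        have hkP : (k : G) ∈ Subgroup.normalizer ((P : Subgroup G) : Set G) := by
          rw [Subgroup.mem_normalizer_iff]
          intro w
          constructor
          · intro hw
            exact (Subgroup.mem_normalizer_iff.1 hk ⟨w, hPC hw⟩).1 hw
          · intro hw
            have hwC : w ∈ C := by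
              have := mul_mem (mul_mem (inv_mem k.2) (hPC hw)) k.2
              rwa [show (k : G)⁻¹ * ((k : G) * w * (k : G)⁻¹) * k = w by group] at this
            exact (Subgroup.mem_normalizer_iff.1 hk ⟨w, hwC⟩).2 hw
        have hfix : ψ ⟨k, hkP⟩ u = u := Subtype.ext (by
          rw [hψval]
          show (k : G) * u * (k : G)⁻¹ = u
          rw [show (k : G) * u = u * k from Subgroup.mem_centralizer_singleton_iff.1 k.2,
            mul_inv_cancel_right])
        have h1 := hfree _ ⟨_, rfl⟩ u hu hfix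
        rw [Subgroup.mem_centralizer_iff]
        intro w hw
        have h2 := hψval ⟨k, hkP⟩ ⟨(w : G), hw⟩
        rw [h1, MulAut.one_apply] at h2
        refine Subtype.ext ?_
        show (w : G) * k = k * w
        conv_lhs => rw [show (w : G) = (k : G) * w * (k : G)⁻¹ from h2]
        group
      obtain ⟨hcompl, hmem⟩ := core_of_normalizer_le T hTle
      refine ⟨?_, fun v hv hodd => ?_⟩
      · show Nat.card ((Cfsg.pPrimeCore 2 C).map C.subtype) * _ = Nat.card C
        rw [Subgroup.card_map_of_injective C.subtype_injective, ← hcompl.card_mul_card,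
          Nat.card_congr (Subgroup.subgroupOfEquivOfLe hPC).symm.toEquiv]
        rfl
      · exact ⟨⟨v, Subgroup.mem_centralizer_singleton_iff.2 hv.eq⟩,
          hmem _ (by rwa [← Subgroup.orderOf_coe]), rfl⟩
  have hcard : Fintype.card (P : Subgroup G) = 2 ^ m * 2 ^ m := by
    rw [← Nat.card_eq_fintype_card, Nat.card_congr e.toEquiv]
    show Nat.card (ZMod (2 ^ m) × ZMod (2 ^ m)) = _
    rw [Nat.card_prod, Nat.card_zmod]
  set x : (P : Subgroup G) := e.symm (Multiplicative.ofAdd (1, 0)) with hx
  have hxx : x * x ≠ 1 := by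
    intro h
    rw [hx, ← map_mul, MulEquiv.map_eq_one_iff, ← ofAdd_add, ofAdd_eq_one] at h
    have h1 : ((2 : ℕ) : ZMod (2 ^ m)) = 0 := by
      have := congrArg Prod.fst h
      simpa [one_add_one_eq_two] using this
    rw [ZMod.natCast_eq_zero_iff] at h1
    have h2 := Nat.le_of_dvd (by norm_num) h1
    have : 4 ≤ 2 ^ m := le_trans (by norm_num) (Nat.pow_le_pow_right (by norm_num) hm)
    omega
  have hta : a * a = 1 := by
    have := pow_orderOf_eq_one a
    rwa [ha, pow_two] at this
  have ha1 : a ≠ 1 := fun h => by rw [h, orderOf_one] at ha; omega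
  obtain ⟨N, hN, hNtop, hPN⟩ := exists_normal_ne_top hF
    (by rw [hcard, ← pow_add]; exact (show 16 = 2 ^ 4 by norm_num) ▸ pow_dvd_pow 2 (by omega))
    hxx hta ha1
  rw [Subgroup.range_subtype] at hPN
  have hlt : Nat.card N < n := hn ▸ lt_of_le_of_ne (Subgroup.card_le_card_group N)
    fun h => hNtop (Subgroup.eq_top_of_card_eq N h)
  haveI : ((P.subtype hPN : Sylow 2 N) : Subgroup N).Normal := ih _ hlt N (P.subtype hPN) rfl
    ((Subgroup.subgroupOfEquivOfLe hPN).trans e) (Involution.oddCore_normal_sub_eq_bot hO hN)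
  letI := Sylow.unique_of_normal (P.subtype hPN) inferInstance
  refine Subgroup.normalizer_eq_top_iff.1 (eq_top_iff.2 fun g _ => ?_)
  refine Sylow.smul_eq_iff_mem_normalizer.1 ?_
  have hgN : ((g • P : Sylow 2 G) : Subgroup G) ≤ N := by
    rintro _ ⟨w, hw, rfl⟩
    exact hN.conj_mem w (hPN hw) g
  exact Sylow.subtype_injective (hP := hgN) (hQ := hPN) (Subsingleton.elim _ _)

/-- The centralizer and the index. -/
theorem centralizer_index_of_normal (m : ℕ) (hm : 1 ≤ m) (P : Sylow 2 G)
    [hP : (P : Subgroup G).Normal]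
    (e : (P : Subgroup G) ≃* Multiplicative (ZMod (2 ^ m) × ZMod (2 ^ m))) (hO : oddCore G = ⊥) :
    Subgroup.centralizer (P : Set G) = (P : Subgroup G) ∧
      ((P : Subgroup G).index = 1 ∨ (P : Subgroup G).index = 3) := by
  haveI : Fact (Nat.Prime 2) := ⟨Nat.prime_two⟩
  have hPC : (P : Subgroup G) ≤ Subgroup.centralizer (P : Set G) := fun w hw =>
    Subgroup.mem_centralizer_iff.2 fun v hv => congrArg Subtype.val
      (e.injective (by rw [map_mul, map_mul, mul_comm]) :
        (⟨v, hv⟩ : (P : Subgroup G)) * ⟨w, hw⟩ = ⟨w, hw⟩ * ⟨v, hv⟩)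
  have hCn : (Subgroup.centralizer (P : Set G)).Normal :=
    (inferInstance : (Subgroup.centralizer ((P : Subgroup G) : Set G)).Normal)
  have htop := eq_top_of_normalizer_le (Involution.oddCore_normal_sub_eq_bot hO hCn) (P.subtype hPC)
    (fun k _ => Subgroup.mem_centralizer_iff.2 fun w hw =>
      Subtype.ext (Subgroup.mem_centralizer_iff.1 k.2 (w : G) hw))
  have hCP : Subgroup.centralizer (P : Set G) = (P : Subgroup G) :=
    le_antisymm (Subgroup.subgroupOf_eq_top.1 htop) hPC
  refine ⟨hCP, ?_⟩
  have h := Block.Homocyclic.relIndex_cases P m hm e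
  rwa [hCP, show Subgroup.normalizer (P : Set G) = ⊤ from Subgroup.normalizer_eq_top_iff.2 hP,
    Subgroup.relIndex_top_right] at h

end Cfsg.Agent.Lib.SquareSylow
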